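/-
Bridges between the Prelude's form of the cyclic TI hypothesis and the ambient one.
-/
import Cfsg.Agent.H52.CycTI
import Cfsg.Agent.H47.Cyc

set_option autoImplicit false
set_option linter.unusedSectionVars false
set_option linter.unusedVariables false

open scoped ComplexConjugate
open Cfsg Cfsg.Agent.H49 Cfsg.Agent.H54

namespace Cfsg.Agent.H52

variable {G : Type*} [Group G] [Fintype G] {W₁ W₂ : Subgroup G}

theorem dp_of_selfNorm (h : IsSelfNormalizingCyclic W₁ W₂) : DP W₁ W₂ := ⟨h.2.2.1, h.2.2.2.1⟩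

theorem cent_of_selfNorm (h : IsSelfNormalizingCyclic W₁ W₂) {x : G} (hx : x ∈ cycTIset W₁ W₂) :
    𝒞[x] = W₁ ⊔ W₂ := by
  rw [← h.2.2.2.2.2 {x} (by rintro _ rfl; exact hx) ⟨x, rfl⟩]
  ext g
  rw [Subgroup.mem_centralizer_singleton_iff, Subgroup.mem_set_normalizer_iff]
  simp only [Set.mem_singleton_iff]
  refine ⟨fun e y => ?_, fun e => mul_inv_eq_iff_eq_mul.1 ((e x).1 rfl)⟩
  rw [mul_inv_eq_iff_eq_mul, ← e, mul_right_inj]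

theorem ti_of_selfNorm (h : IsSelfNormalizingCyclic W₁ W₂) (g : G) {x : G}
    (hx : x ∈ cycTIset W₁ W₂) (hy : g * x * g⁻¹ ∈ cycTIset W₁ W₂) : g ∈ W₁ ⊔ W₂ := by
  have e : g ∈ 𝒩(W₁ ⊔ W₂) := by
    rw [mem_norm_iff_cj]
    conv_lhs => rw [← cent_of_selfNorm h hx]
    rw [cj_cent1, cent_of_selfNorm h hy]
  have e1 := H47.cyc_norm h.2.2.2.2.1 le_sup_left e
  have e2 := H47.cyc_norm h.2.2.2.2.1 le_sup_right e
  rw [← h.2.2.2.2.2 (cycTIset W₁ W₂) subset_rfl ⟨x, hx⟩, Subgroup.mem_set_normalizer_iff]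
  intro y
  simp only [mem_cycTIset, conj_mem_iff_of_norm e, conj_mem_iff_of_norm e1, conj_mem_iff_of_norm e2]

theorem cycTI_of_selfNorm (h : IsSelfNormalizingCyclic W₁ W₂) (hodd : Odd (Nat.card ↥(W₁ ⊔ W₂))) :
    CycTIHyp ⊤ W₁ W₂ :=
  ⟨le_top, h.1, h.2.1, h.2.2.1, h.2.2.2.1, h.2.2.2.2.1, hodd,
    fun g _ _ hx hy => ti_of_selfNorm h g hx hy⟩

/-- restriction of a linear character of `W₁ ⊔ W₂` to `W₁` -/
def dualL (ω : Dual (W₁ ⊔ W₂)) : Dual W₁ := ω.comp (Subgroup.inclusion le_sup_left)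

/-- restriction of a linear character of `W₁ ⊔ W₂` to `W₂` -/
def dualR (ω : Dual (W₁ ⊔ W₂)) : Dual W₂ := ω.comp (Subgroup.inclusion le_sup_right)

theorem linChar_eq_omega (h : DP W₁ W₂) (ω : Dual (W₁ ⊔ W₂)) :
    linChar (W₁ ⊔ W₂) ω = omega W₁ W₂ (dualL ω) (dualR ω) :=
  h.ext (linChar_supp ω) (omega_supp _ _) fun a ha b hb => by
    rw [omega_mul_apply h _ _ ha hb, lin_map_mul (linChar_lin ω) (Subgroup.mem_sup_left ha)
      (Subgroup.mem_sup_right hb), linChar_apply_of_mem _ ha, linChar_apply_of_mem _ hb,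
      linChar_apply_of_mem _ (Subgroup.mem_sup_left ha),
      linChar_apply_of_mem _ (Subgroup.mem_sup_right hb)]
    rfl

theorem dual_eq_iff (h : DP W₁ W₂) {ω ω' : Dual (W₁ ⊔ W₂)} :
    ω = ω' ↔ dualL ω = dualL ω' ∧ dualR ω = dualR ω' := by
  rw [← omega_inj h, ← linChar_eq_omega h, ← linChar_eq_omega h, (linChar_injective _).eq_iff]

theorem dualL_eq_one {ψ : Dual (W₁ ⊔ W₂)} (h : ∀ w : ↥(W₁ ⊔ W₂), (w : G) ∈ W₁ → ψ w = 1) :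
    dualL ψ = 1 := MonoidHom.ext fun x => h _ x.2

theorem dualR_eq_one {φ : Dual (W₁ ⊔ W₂)} (h : ∀ w : ↥(W₁ ⊔ W₂), (w : G) ∈ W₂ → φ w = 1) :
    dualR φ = 1 := MonoidHom.ext fun x => h _ x.2

theorem dualL_mul (φ ψ : Dual (W₁ ⊔ W₂)) : dualL (φ * ψ) = dualL φ * dualL ψ := rfl

theorem dualR_mul (φ ψ : Dual (W₁ ⊔ W₂)) : dualR (φ * ψ) = dualR φ * dualR ψ := rfl

theorem dualL_ne_one (h : DP W₁ W₂) {φ : Dual (W₁ ⊔ W₂)} (h1 : φ ≠ 1) (h2 : dualR φ = 1) :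
    dualL φ ≠ 1 := fun e => h1 ((dual_eq_iff h).2 ⟨e, h2⟩)

theorem dualR_ne_one (h : DP W₁ W₂) {ψ : Dual (W₁ ⊔ W₂)} (h1 : ψ ≠ 1) (h2 : dualL ψ = 1) :
    dualR ψ ≠ 1 := fun e => h1 ((dual_eq_iff h).2 ⟨h2, e⟩)

theorem rst_alpha (h : DP W₁ W₂) {φ ψ : Dual (W₁ ⊔ W₂)} (hφ : dualR φ = 1) (hψ : dualL ψ = 1) :
    rst (W₁ ⊔ W₂) (alpha W₁ W₂ (dualL φ) (dualR ψ)) =
      fun w => 1 - (φ w : ℂ) - (ψ w : ℂ) + (φ w : ℂ) * (ψ w : ℂ) := by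
  have e1 := linChar_eq_omega h φ
  have e2 := linChar_eq_omega h ψ
  rw [hφ] at e1
  rw [hψ] at e2
  rw [alpha, omega_split h (dualL φ) (dualR ψ), ← e1, ← e2, omega_one h]
  funext w
  simp [rst, linChar_coe, cf1_apply_of_mem w.2]

theorem exists_dual_left (h : DP W₁ W₂) (i : Dual W₁) :
    ∃ φ : Dual (W₁ ⊔ W₂), dualL φ = i ∧ dualR φ = 1 := by
  obtain ⟨φ, e⟩ := exists_dual_of_lin (omega_lin h i 1)
  rw [linChar_eq_omega h, omega_inj h] at e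
  exact ⟨φ, e.1.symm, e.2.symm⟩

theorem exists_dual_right (h : DP W₁ W₂) (j : Dual W₂) :
    ∃ ψ : Dual (W₁ ⊔ W₂), dualL ψ = 1 ∧ dualR ψ = j := by
  obtain ⟨φ, e⟩ := exists_dual_of_lin (omega_lin h 1 j)
  rw [linChar_eq_omega h, omega_inj h] at e
  exact ⟨φ, e.1.symm, e.2.symm⟩

end Cfsg.Agent.H52
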